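import Cfsg.Agent.Lib.Helper11.Fi24e3.Top

set_option autoImplicit false
set_option maxRecDepth 100000

namespace Cfsg.Agent.Lib.Helper11.Fi24e3

set_option maxHeartbeats 0
theorem b0 : allR (guardB 6 (blk fc sc rt.get INV isH)) 3 0 = true := by decide +kernel
theorem c0 : allR (guardB 4 (cblk fc nc cc 1536 112 39402006196394479212279040100143613805079739270465446667948293404245721771497210611414266254884915640806627990306816 gens)) 2 0 = true := by decide +kernel

end Cfsg.Agent.Lib.Helper11.Fi24e3
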